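import Mathlib
import Cfsg.Agent.S0040
import Cfsg.Agent.Lib.Struct4.FrobeniusCons

/-! The kernel has square order when the complement contains a quaternion group. -/

set_option autoImplicit false

open Cfsg
open scoped IsMulCommutative

namespace Cfsg.Agent.Struct4

theorem isSquare_card_elementary {A : Type*} [AddCommGroup A] [Finite A] {p : ℕ} [Fact p.Prime]
    (hp2 : Odd p) (hA : ∀ x : A, p • x = 0) (I J : AddMonoid.End A) (hI : ∀ x, I (I x) = -x)
    (hJ : ∀ x, J (J x) = -x) (hIJ : ∀ x, I (J x) = -J (I x)) : IsSquare (Nat.card A) := by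
  obtain ⟨a, b, hab⟩ := ZMod.sq_add_sq p (-1)
  obtain ⟨m, hm⟩ := hp2
  set K : AddMonoid.End A := I * J with hK
  set E : A →+ A := (a.val : ℕ) • (I : A →+ A) + (b.val : ℕ) • (J : A →+ A) with hE
  have hEx : ∀ x, E x = a.val • I x + b.val • J x := fun x => rfl
  have hKx : ∀ x, K x = I (J x) := fun x => rfl
  have hsum : p ∣ a.val ^ 2 + b.val ^ 2 + 1 := by
    rw [← ZMod.natCast_eq_zero_iff]
    simp [hab]
  have hEE : ∀ x, E (E x) = x := fun x => by
    obtain ⟨c, hc⟩ := hsum
    have h1 : (a.val ^ 2 + b.val ^ 2 + 1) • x = 0 := by rw [hc, mul_comm, mul_smul, hA, smul_zero]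
    rw [add_smul, one_smul, add_eq_zero_iff_eq_neg] at h1
    have h2 : E (E x) = -((a.val ^ 2 + b.val ^ 2) • x) := by
      simp only [hEx, map_add, map_nsmul, hI, hJ, hIJ, smul_add, smul_neg, ← mul_smul, add_smul, sq,
        neg_add, mul_comm b.val a.val]
      abel
    rw [h2, h1, neg_neg]
  have hKE : ∀ x, K (E x) = -E (K x) := fun x => by
    simp only [hEx, hKx, map_add, map_nsmul, hI, hJ, hIJ, map_neg, smul_neg, neg_add, neg_neg]
  have hKK : ∀ x, K (K x) = -x := fun x => by
    simp only [hKx, hI, hJ, hIJ, map_neg, neg_neg]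
  have hhalf : ∀ x : A, (m + 1) • (x + x) = x := fun x => by
    rw [← two_nsmul, ← mul_smul, show (m + 1) * 2 = p + 1 by omega, add_smul, hA, one_smul, zero_add]
  let Ap : AddSubgroup A :=
    { carrier := {x | E x = x}
      add_mem' := fun {x y} hx hy => by
        show E (x + y) = x + y
        rw [map_add, hx, hy]
      zero_mem' := map_zero E
      neg_mem' := fun {x} hx => by
        show E (-x) = -x
        rw [map_neg, hx] }
  let e : A ≃ Ap × Ap :=
    { toFun := fun x => (⟨(m + 1) • (x + E x), by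
          show E _ = _
          rw [map_nsmul, map_add, hEE, add_comm (E x) x]⟩,
        ⟨K ((m + 1) • (x - E x)), by
          show E _ = _
          rw [← neg_neg (E (K _)), ← hKE, map_nsmul E, map_sub, hEE, ← map_neg K, ← smul_neg, neg_sub]⟩)
      invFun := fun z => z.1.1 - K z.2.1
      left_inv := fun x => by
        show (m + 1) • (x + E x) - K (K ((m + 1) • (x - E x))) = x
        rw [hKK, sub_neg_eq_add, ← smul_add]
        convert hhalf x using 2
        abel
      right_inv := fun z => by
        obtain ⟨⟨u, hu⟩, ⟨v, hv⟩⟩ := z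
        have hu' : E u = u := hu
        have hv' : E (K v) = -K v := by rw [← neg_neg (E (K v)), ← hKE, hv]
        refine Prod.ext (Subtype.ext ?_) (Subtype.ext ?_)
        · show (m + 1) • (u - K v + E (u - K v)) = u
          rw [map_sub, hu', hv']
          convert hhalf u using 2
          abel
        · show K ((m + 1) • (u - K v - E (u - K v))) = v
          rw [map_sub, hu', hv', show u - K v - (u - -K v) = -(K v + K v) by abel, smul_neg, hhalf,
            map_neg, hKK, neg_neg] }
  exact ⟨Nat.card Ap, by rw [Nat.card_congr e, Nat.card_prod]⟩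

theorem isSquare_card_of_anticommuting {A : Type*} [AddCommGroup A] [Finite A]
    (hodd : Odd (Nat.card A)) (I J : AddMonoid.End A) (hI : ∀ x, I (I x) = -x)
    (hJ : ∀ x, J (J x) = -x) (hIJ : ∀ x, I (J x) = -J (I x)) : IsSquare (Nat.card A) := by
  suffices h : ∀ n : ℕ, ∀ S : AddSubgroup A, Nat.card S = n → (∀ x ∈ S, I x ∈ S) → (∀ x ∈ S, J x ∈ S) →
      IsSquare (Nat.card S) by
    have := h _ ⊤ rfl (fun _ _ => trivial) (fun _ _ => trivial)
    rwa [AddSubgroup.card_top] at this
  intro n
  induction n using Nat.strongRecOn with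
  | ind n ih =>
    intro S hn hSI hSJ
    rcases eq_or_ne (Nat.card S) 1 with h1 | h1
    · exact ⟨1, by rw [h1]⟩
    obtain ⟨p, hp, hpS⟩ := Nat.exists_prime_and_dvd h1
    have := Fact.mk hp
    have hp2 : Odd p := hodd.of_dvd_nat (hpS.trans (AddSubgroup.card_addSubgroup_dvd_card S))
    let f : S →+ A := (nsmulAddMonoidHom p).comp S.subtype
    have hrS : f.range ≤ S := by
      rintro _ ⟨x, rfl⟩
      exact S.nsmul_mem x.2 p
    have hcard : Nat.card f.ker * Nat.card f.range = Nat.card S := by
      rw [← AddSubgroup.index_ker, AddSubgroup.card_mul_index]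
    have hk1 : 1 < Nat.card f.ker := by
      obtain ⟨x, hx⟩ := exists_prime_addOrderOf_dvd_card' p hpS
      rw [Finite.one_lt_card_iff_nontrivial, AddSubgroup.nontrivial_iff_ne_bot]
      intro hb
      have : x ∈ f.ker := by
        rw [AddMonoidHom.mem_ker]
        show p • (x : A) = 0
        rw [← hx, ← AddSubgroup.coe_nsmul, addOrderOf_nsmul_eq_zero, ZeroMemClass.coe_zero]
      rw [hb, AddSubgroup.mem_bot] at this
      rw [this, addOrderOf_zero] at hx
      exact hp.one_lt.ne hx
    have hr : IsSquare (Nat.card f.range) := by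
      refine ih (Nat.card f.range) ?_ f.range rfl ?_ ?_
      · rw [← hn, ← hcard]
        exact lt_mul_of_one_lt_left Nat.card_pos hk1
      · rintro _ ⟨x, rfl⟩
        exact ⟨⟨I x, hSI _ x.2⟩, (map_nsmul I p (x : A)).symm⟩
      · rintro _ ⟨x, rfl⟩
        exact ⟨⟨J x, hSJ _ x.2⟩, (map_nsmul J p (x : A)).symm⟩
    have hk : IsSquare (Nat.card f.ker) := by
      have hmem : ∀ (T : AddMonoid.End A) (hT : ∀ x ∈ S, T x ∈ S) (x : f.ker),
          (⟨T ((x : S) : A), hT _ (x : S).2⟩ : S) ∈ f.ker := fun T hT x => by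
        have hx : p • ((x : S) : A) = 0 := x.2
        show p • T ((x : S) : A) = 0
        rw [← map_nsmul, hx, map_zero]
      let R : (T : AddMonoid.End A) → (∀ x ∈ S, T x ∈ S) → AddMonoid.End f.ker := fun T hT =>
        AddMonoidHom.mk' (fun x => ⟨⟨T ((x : S) : A), hT _ (x : S).2⟩, hmem T hT x⟩)
          fun x y => Subtype.ext (Subtype.ext (map_add T _ _))
      refine isSquare_card_elementary hp2 (fun x => Subtype.ext (Subtype.ext ?_)) (R I hSI) (R J hSJ)
        (fun x => Subtype.ext (Subtype.ext (hI _))) (fun x => Subtype.ext (Subtype.ext (hJ _)))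
        (fun x => Subtype.ext (Subtype.ext (hIJ _)))
      exact x.2
    exact hcard ▸ hk.mul hr

/-- The kernel of a Frobenius group whose complement has a quaternion subgroup. -/
theorem kernel_square {L : Type*} [Group L] [Finite L] {H : Subgroup L}
    (hF : Cfsg.IsFrobeniusComplement H) {i j t : H} (ht : t ≠ 1) (htt : t * t = 1) (hi : i * i = t)
    (hj : j * j = t) (hij : i * j = t * (j * i)) :
    Odd (Nat.card (Cfsg.frobeniusKernel H)) ∧ IsSquare (Nat.card (Cfsg.frobeniusKernel H)) := by
  obtain ⟨K, hK, hKn, -, hKb, hfpf⟩ := exists_kernel_of_fc hF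
  rw [show Nat.card (Cfsg.frobeniusKernel H) = Nat.card K by rw [← hK]; rfl]
  let c : H →* MulAut K := MulAut.conjNormal.comp H.subtype
  have hinvol : Function.Involutive (c t) := fun k => by
    rw [← MulAut.mul_apply, ← map_mul, htt, map_one, MulAut.one_apply]
  have hfix : MonoidHom.FixedPointFree (c t) := fun k hk => by
    have h1 : (k : L) ∈ K ⊓ Subgroup.centralizer {(t : L)} := by
      refine ⟨k.2, Subgroup.mem_centralizer_singleton_iff.2 ?_⟩
      have h2 : (t : L) * k * (t : L)⁻¹ = k := congrArg Subtype.val hk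
      exact (mul_inv_eq_iff_eq_mul.1 h2).symm
    rw [hfpf t t.2 (fun h => ht (Subtype.ext h)), Subgroup.mem_bot] at h1
    exact Subtype.ext h1
  have hinv := MonoidHom.FixedPointFree.coe_eq_inv_of_involutive hfix hinvol
  have hodd := MonoidHom.FixedPointFree.odd_card_of_involutive hfix hinvol
  refine ⟨hodd, ?_⟩
  have : IsMulCommutative K :=
    ⟨⟨MonoidHom.FixedPointFree.commute_all_of_involutive hfix hinvol⟩⟩
  let E : H → AddMonoid.End (Additive K) := fun h =>
    AddMonoidHom.mk' (fun x => Additive.ofMul (c h x.toMul)) fun x y =>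
      congrArg Additive.ofMul (map_mul (c h) x.toMul y.toMul)
  have hEt : ∀ x, E t x = -x := fun x => congrArg Additive.ofMul (congrFun hinv x.toMul)
  have hEmul : ∀ g h x, E g (E h x) = E (g * h) x := fun g h x =>
    congrArg Additive.ofMul (by rw [map_mul]; rfl)
  have := isSquare_card_of_anticommuting (A := Additive K)
    (by rwa [Nat.card_congr Additive.toMul]) (E i) (E j)
    (fun x => by rw [hEmul, hi, hEt]) (fun x => by rw [hEmul, hj, hEt])
    (fun x => by rw [hEmul, hij, ← hEmul, hEt, hEmul])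
  rwa [Nat.card_congr Additive.toMul] at this

theorem quaternion_triple {m : ℕ} (hm : Even m) [NeZero m] :
    ∃ i j t : QuaternionGroup m, t ≠ 1 ∧ t * t = 1 ∧ i * i = t ∧ j * j = t ∧ i * j = t * (j * i) := by
  obtain ⟨k, rfl⟩ := hm
  refine ⟨.a (k : ℕ), .xa 0, .a ((k + k : ℕ) : ZMod (2 * (k + k))), ?_, ?_, ?_, ?_, ?_⟩
  · rw [QuaternionGroup.one_def, ne_eq, QuaternionGroup.a.injEq, ZMod.natCast_eq_zero_iff]
    intro h
    have hm := NeZero.ne (k + k)
    have := Nat.le_of_dvd (by omega) h
    omega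
  · rw [QuaternionGroup.a_mul_a, QuaternionGroup.one_def, ← Nat.cast_add,
      show k + k + (k + k) = 2 * (k + k) by omega, ZMod.natCast_self]
  · rw [QuaternionGroup.a_mul_a, Nat.cast_add]
  · rw [QuaternionGroup.xa_mul_xa, add_zero, sub_zero]
  · rw [QuaternionGroup.xa_mul_a, QuaternionGroup.a_mul_xa, QuaternionGroup.a_mul_xa]
    congr 1
    push_cast
    abel

end Cfsg.Agent.Struct4
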