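import Mathlib
import Cfsg.Agent.Lib.Struct4.FrobeniusCons

/-! `SL₂(p)` as a Frobenius complement through an embedding in `SL₂(q)` given by a table. -/

set_option autoImplicit false

namespace Cfsg.Agent.Struct4

open Matrix

theorem map_mul_of_gens {G M : Type*} [Monoid G] [Monoid M] (f : G → M) (gens : Set G)
    (h1 : f 1 = 1) (hS : ∀ x, ∀ s ∈ gens, f (x * s) = f x * f s)
    (hw : ∀ x, x ∈ Submonoid.closure gens) (x y : G) : f (x * y) = f x * f y := by
  revert x
  refine Submonoid.closure_induction (fun s hs x => hS x s hs) (fun x => by rw [mul_one, h1, mul_one])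
    (fun a b _ _ ha hb x => ?_) (hw y)
  rw [← mul_assoc, hb, ha, hb a, mul_assoc]

theorem isFC_sl2_of_table (p q : ℕ) [Fact p.Prime] [Fact q.Prime]
    (f0 : Matrix (Fin 2) (Fin 2) (ZMod p) → Matrix (Fin 2) (Fin 2) (ZMod q))
    (gens : List (Matrix (Fin 2) (Fin 2) (ZMod p)))
    (word : Matrix (Fin 2) (Fin 2) (ZMod p) → List (Matrix (Fin 2) (Fin 2) (ZMod p)))
    (hgens : ∀ s ∈ gens, s.det = 1)
    (hone : f0 1 = 1)
    (h : ∀ a b c d : ZMod p, a * d - b * c = 1 →
      (f0 !![a, b; c, d]).det = 1 ∧ (∀ s ∈ gens, f0 (!![a, b; c, d] * s) = f0 !![a, b; c, d] * f0 s) ∧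
      ((∀ s ∈ word !![a, b; c, d], s ∈ gens) ∧ (word !![a, b; c, d]).prod = !![a, b; c, d]) ∧
      (f0 !![a, b; c, d] = 1 → !![a, b; c, d] = 1) ∧
      (!![a, b; c, d] ^ q = 1 → !![a, b; c, d] = 1)) :
    IsFC (SpecialLinearGroup (Fin 2) (ZMod p)) := by
  have hx : ∀ x : SpecialLinearGroup (Fin 2) (ZMod p), (f0 x.1).det = 1 ∧
      (∀ s ∈ gens, f0 (x.1 * s) = f0 x.1 * f0 s) ∧
      ((∀ s ∈ word x.1, s ∈ gens) ∧ (word x.1).prod = x.1) ∧
      (f0 x.1 = 1 → x.1 = 1) ∧ (x.1 ^ q = 1 → x.1 = 1) := by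
    intro x
    have hd := x.2
    rw [det_fin_two] at hd
    rw [eta_fin_two x.1]
    exact h _ _ _ _ hd
  let F : SpecialLinearGroup (Fin 2) (ZMod p) → SpecialLinearGroup (Fin 2) (ZMod q) :=
    fun x => ⟨f0 x.1, (hx x).1⟩
  have hgen : ∀ x : SpecialLinearGroup (Fin 2) (ZMod p),
      x ∈ Submonoid.closure {s : SpecialLinearGroup (Fin 2) (ZMod p) | s.1 ∈ gens} := by
    intro x
    obtain ⟨hmem, hprod⟩ := (hx x).2.2.1
    have key : ∀ l : List (Matrix (Fin 2) (Fin 2) (ZMod p)), (∀ s ∈ l, s ∈ gens) →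
        ∃ y ∈ Submonoid.closure {s : SpecialLinearGroup (Fin 2) (ZMod p) | s.1 ∈ gens}, y.1 = l.prod := by
      intro l
      induction l with
      | nil => exact fun _ => ⟨1, one_mem _, rfl⟩
      | cons a l ih =>
        intro hl
        obtain ⟨y, hy, hy'⟩ := ih fun s hs => hl s (List.mem_cons_of_mem _ hs)
        refine ⟨⟨a, hgens a (hl a List.mem_cons_self)⟩ * y,
          mul_mem (Submonoid.subset_closure (hl a List.mem_cons_self)) hy, ?_⟩
        rw [List.prod_cons, ← hy']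
        rfl
    obtain ⟨y, hy, hy'⟩ := key _ hmem
    rwa [Subtype.ext (hy'.trans hprod) (a1 := y) (a2 := x)] at hy
  have hmul := map_mul_of_gens F _ (Subtype.ext hone)
    (fun x s hs => Subtype.ext ((hx x).2.1 s.1 hs)) hgen
  let f : SpecialLinearGroup (Fin 2) (ZMod p) →* SpecialLinearGroup (Fin 2) (ZMod q) :=
    MonoidHom.mk' F hmul
  have hinj : Function.Injective f := (injective_iff_map_eq_one f).2 fun x hx1 =>
    Subtype.ext ((hx x).2.2.2.1 (congrArg Subtype.val hx1))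
  have : Nontrivial (SpecialLinearGroup (Fin 2) (ZMod p)) :=
    ⟨⟨!![0, -1; 1, 0], by simp [det_fin_two]⟩, 1, fun h => by
      simpa using congrFun (congrFun (congrArg Subtype.val h) 1) 0⟩
  refine fc_of_sl2 f hinj fun hdvd => ?_
  obtain ⟨x, hxq⟩ := exists_prime_orderOf_dvd_card' (G := SpecialLinearGroup (Fin 2) (ZMod p)) q hdvd
  have h1 : x = 1 := Subtype.ext ((hx x).2.2.2.2 (by
    have := pow_orderOf_eq_one x
    rw [hxq] at this
    exact congrArg Subtype.val this))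
  rw [h1, orderOf_one] at hxq
  exact (Fact.out : q.Prime).one_lt.ne hxq

/-- The table lookup used for the embeddings. -/
def tableMat (q : ℕ) (tbl : List (ℕ × ℕ × ℕ × ℕ × ℕ)) (k : ℕ) : Matrix (Fin 2) (Fin 2) (ZMod q) :=
  match tbl.find? (fun e => e.1 == k) with
  | some e => !![(e.2.1 : ZMod q), (e.2.2.1 : ZMod q); (e.2.2.2.1 : ZMod q), (e.2.2.2.2 : ZMod q)]
  | none => 1

/-- The index of a matrix. -/
def matKey {p : ℕ} (M : Matrix (Fin 2) (Fin 2) (ZMod p)) : ℕ :=
  (((M 0 0).val * p + (M 0 1).val) * p + (M 1 0).val) * p + (M 1 1).val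

/-- The word lookup used for the embeddings. -/
def tableWord {p : ℕ} (tbl : List (ℕ × List Bool)) (k : ℕ) : List (Matrix (Fin 2) (Fin 2) (ZMod p)) :=
  match tbl.find? (fun e => e.1 == k) with
  | some e => e.2.map fun b => if b then !![1, 1; 0, 1] else !![0, -1; 1, 0]
  | none => []

end Cfsg.Agent.Struct4
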