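import Cfsg.Agent.Lib.Struct4.TwistedDesign

set_option autoImplicit false

namespace Cfsg.Agent.Lib.Struct4

variable {Ω : Type*} [Fintype Ω]

theorem twisted_induced (G : Subgroup (Equiv.Perm Ω)) (h2 : MulAction.IsMultiplyPretransitive G Ω 2)
    (o : Ω) (α : MulAut G) (hα : Odd (orderOf α)) (ω : Ω)
    (hk : (Nat.card (MulAction.orbit ((MulAction.stabilizer G o).map α.toMonoidHom) ω)).Coprime (Fintype.card Ω)) :
    (∃ σ : Equiv.Perm Ω, σ ∈ Subgroup.normalizer (G : Set (Equiv.Perm Ω)) ∧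
        ∀ g : G, ((α g : G) : Equiv.Perm Ω) = σ * (g : Equiv.Perm Ω) * σ⁻¹) ∧
      (Nat.card (MulAction.orbit ((MulAction.stabilizer G o).map α.toMonoidHom) ω) = 1 ∨
        Nat.card (MulAction.orbit ((MulAction.stabilizer G o).map α.toMonoidHom) ω) = Fintype.card Ω - 1) := by
  classical
  haveI := h2
  haveI : MulAction.IsPretransitive G Ω := MulAction.isPretransitive_of_is_two_pretransitive
  rcases Nat.lt_or_ge (Fintype.card Ω) 2 with hn | hn
  · haveI : Subsingleton Ω := Fintype.card_le_one_iff_subsingleton.1 (by omega)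
    refine ⟨exists_inducing_perm G o α ω fun g _ => Subsingleton.elim _ _, Or.inl ?_⟩
    haveI : Nonempty (MulAction.orbit ((MulAction.stabilizer G o).map α.toMonoidHom) ω) :=
      ⟨⟨ω, MulAction.mem_orbit_self ω⟩⟩
    exact Nat.card_unique
  have hor := card_twisted_orbit G h2 hn o ω α hα hk
  refine ⟨?_, hor⟩
  set H := (MulAction.stabilizer G o).map α.toMonoidHom
  rcases hor with h1 | h1
  · refine exists_inducing_perm G o α ω fun g hg => ?_
    haveI := (Nat.card_eq_one_iff_unique.1 h1).1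
    exact congrArg Subtype.val (Subsingleton.elim
      (⟨α g • ω, ⟨⟨α g, g, hg, rfl⟩, rfl⟩⟩ : MulAction.orbit H ω) ⟨ω, MulAction.mem_orbit_self ω⟩)
  · have hc : (MulAction.orbit H ω)ᶜ.ncard = 1 := by
      rw [Set.ncard_compl, ← Nat.card_coe_set_eq, h1, Nat.card_eq_fintype_card]
      omega
    obtain ⟨ω', hω'⟩ := Set.ncard_eq_one.1 hc
    refine exists_inducing_perm G o α ω' fun g hg => ?_
    have hmem : α g • ω' ∈ (MulAction.orbit H ω)ᶜ := by
      intro hin
      have hω'' : ω' ∈ (MulAction.orbit H ω)ᶜ := hω' ▸ rfl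
      exact hω'' ((MulAction.mem_orbit_of_mem_orbit (⟨α g, g, hg, rfl⟩ : H)⁻¹ hin) |> fun e => by
        rwa [inv_smul_eq_iff.2 (show α g • ω' = (⟨α g, g, hg, rfl⟩ : H) • ω' from rfl)] at e)
    rw [hω'] at hmem
    exact hmem

end Cfsg.Agent.Lib.Struct4
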