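import Mathlib.GroupTheory.GroupAction.MultipleTransitivity
import Mathlib.Data.Matrix.Mul
import Mathlib.Algebra.Group.Subgroup.Pointwise
import Mathlib.GroupTheory.OrderOfElement
import Mathlib.Tactic

set_option autoImplicit false

namespace Cfsg.Agent.Lib.Struct4

open Matrix

variable {Ω : Type*} [Fintype Ω]

/-- An automorphism mapping the point stabilizer into one fixing a point is induced by a permutation. -/
theorem exists_inducing_perm (G : Subgroup (Equiv.Perm Ω)) [MulAction.IsPretransitive G Ω] (o : Ω)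
    (α : G ≃* G) (ω : Ω) (h : ∀ g : G, g • o = o → α g • ω = ω) :
    ∃ σ : Equiv.Perm Ω, σ ∈ Subgroup.normalizer (G : Set (Equiv.Perm Ω)) ∧
      ∀ g : G, ((α g : G) : Equiv.Perm Ω) = σ * (g : Equiv.Perm Ω) * σ⁻¹ := by
  classical
  choose c hc using fun x : Ω => MulAction.exists_smul_eq G o x
  let f : Ω → Ω := fun x => α (c x) • ω
  have hf : ∀ g : G, f (g • o) = α g • ω := by
    intro g
    have h1 := h (g⁻¹ * c (g • o)) (by rw [mul_smul, hc, inv_smul_smul])
    rw [map_mul, mul_smul, map_inv, inv_smul_eq_iff] at h1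
    exact h1
  have hsurj : Function.Surjective f := by
    intro y
    obtain ⟨g, rfl⟩ := MulAction.exists_smul_eq G ω y
    exact ⟨α.symm g • o, by rw [hf, α.apply_symm_apply]⟩
  let σ := Equiv.ofBijective f ⟨Finite.injective_iff_surjective.2 hsurj, hsurj⟩
  have hσ : ∀ g : G, ((α g : G) : Equiv.Perm Ω) = σ * (g : Equiv.Perm Ω) * σ⁻¹ := by
    intro g
    rw [eq_mul_inv_iff_mul_eq]
    ext x
    obtain ⟨b, rfl⟩ := MulAction.exists_smul_eq G o x
    show α g • f (b • o) = f (g • b • o)
    rw [hf, ← mul_smul g b, hf, map_mul, mul_smul]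
  refine ⟨σ, ?_, hσ⟩
  rw [Subgroup.mem_normalizer_iff]
  intro g
  constructor
  · intro hg
    rw [← hσ ⟨g, hg⟩]
    exact (α ⟨g, hg⟩).2
  · intro hg
    have h1 := hσ (α.symm ⟨_, hg⟩)
    rw [α.apply_symm_apply] at h1
    have h2 : g = ((α.symm ⟨_, hg⟩ : G) : Equiv.Perm Ω) := mul_left_cancel (mul_right_cancel h1)
    rw [h2]
    exact SetLike.coe_mem _

variable [DecidableEq Ω]

theorem square_of_mul_sq {t b c : ℤ} (hc : c ≠ 0) (h : t * c ^ 2 = b ^ 2) : ∃ s : ℤ, t = s ^ 2 := by
  obtain ⟨s, rfl⟩ : c ∣ b := (Int.pow_dvd_pow_iff two_ne_zero).1 ⟨t, by linarith⟩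
  refine ⟨s, mul_right_cancel₀ (pow_ne_zero 2 hc) ?_⟩
  linarith [mul_pow c s 2]

set_option maxHeartbeats 1000000 in
/-- The orbit of a twisted point stabilizer of length prime to the degree has length `1` or `n - 1`. -/
theorem card_twisted_orbit (G : Subgroup (Equiv.Perm Ω)) (h2 : MulAction.IsMultiplyPretransitive G Ω 2)
    (hn : 2 ≤ Fintype.card Ω) (o ω : Ω) (α : MulAut G) (hα : Odd (orderOf α))
    (hk : (Nat.card (MulAction.orbit ((MulAction.stabilizer G o).map α.toMonoidHom) ω)).Coprime (Fintype.card Ω)) :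
    Nat.card (MulAction.orbit ((MulAction.stabilizer G o).map α.toMonoidHom) ω) = 1 ∨
      Nat.card (MulAction.orbit ((MulAction.stabilizer G o).map α.toMonoidHom) ω) = Fintype.card Ω - 1 := by
  classical
  haveI := h2
  haveI hpre : MulAction.IsPretransitive G Ω := MulAction.isPretransitive_of_is_two_pretransitive
  set n := Fintype.card Ω with hndef
  set H := (MulAction.stabilizer G o).map α.toMonoidHom
  set k := Nat.card (MulAction.orbit H ω) with hkdef
  have horbit : ∀ y, y ∈ MulAction.orbit H ω ↔ ∃ g : G, g • o = o ∧ α g • ω = y := by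
    intro y
    constructor
    · rintro ⟨⟨_, g, hg, rfl⟩, rfl⟩
      exact ⟨g, hg, rfl⟩
    · rintro ⟨g, hg, rfl⟩
      exact ⟨⟨_, g, hg, rfl⟩, rfl⟩
  let rel : Ω → Ω → Prop := fun x y => ∃ g : G, g • o = x ∧ α g • ω = y
  let A : Matrix Ω Ω ℤ := Matrix.of fun x y => if rel x y then 1 else 0
  have hrel : ∀ (g : G) x y, rel (g • x) (α g • y) ↔ rel x y := by
    intro g x y
    constructor
    · rintro ⟨b, hb1, hb2⟩
      exact ⟨g⁻¹ * b, by rw [mul_smul, hb1, inv_smul_smul],
        by rw [map_mul, mul_smul, hb2, map_inv, inv_smul_smul]⟩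
    · rintro ⟨b, rfl, rfl⟩
      exact ⟨g * b, mul_smul _ _ _, by rw [map_mul, mul_smul]⟩
  have hA : ∀ (g : G) x y, A (g • x) (α g • y) = A x y := by
    intro g x y
    simp only [A, Matrix.of_apply, hrel]
  have hrow : ∀ x, ∑ y, A x y = (k : ℤ) := by
    intro x
    obtain ⟨g, rfl⟩ := MulAction.exists_smul_eq G o x
    rw [← Equiv.sum_comp (MulAction.toPerm (α g) : Equiv.Perm Ω)]
    simp only [MulAction.toPerm_apply, hA]
    rw [Finset.sum_congr rfl (fun y _ => show A o y = if y ∈ MulAction.orbit H ω then (1 : ℤ) else 0 from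
      if_congr (horbit y).symm rfl rfl)]
    rw [Finset.sum_boole, hkdef, Nat.card_eq_fintype_card, ← Set.toFinset_card]
    congr 2
    ext y
    simp
  have hcol : ∀ y, ∑ x, A x y = (k : ℤ) := by
    have hconst : ∀ y, ∑ x, A x y = ∑ x, A x ω := by
      intro y
      obtain ⟨g, rfl⟩ := MulAction.exists_smul_eq G ω y
      rw [← Equiv.sum_comp (MulAction.toPerm (α.symm g) : Equiv.Perm Ω) (fun x => A x (g • ω))]
      refine Finset.sum_congr rfl fun x _ => ?_
      have := hA (α.symm g) x ω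
      rw [MulEquiv.apply_symm_apply] at this
      exact this
    have htot : ∑ y, ∑ x, A x y = (n : ℤ) * k := by
      rw [Finset.sum_comm]
      simp [hrow, hndef]
    intro y
    have h3 : (n : ℤ) * ∑ x, A x y = (n : ℤ) * k := by
      rw [← htot, Finset.sum_congr rfl (fun z _ => hconst z), hconst y]
      simp [hndef]
    exact mul_left_cancel₀ (by omega) h3
  -- invariant matrices are combinations of `1` and `J`
  let J : Matrix Ω Ω ℤ := Matrix.of fun _ _ => 1
  have hinv : ∀ B : Matrix Ω Ω ℤ, (∀ (g : G) x y, B (g • x) (g • y) = B x y) →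
      ∃ a b : ℤ, B = b • (1 : Matrix Ω Ω ℤ) + a • J := by
    intro B hB
    obtain ⟨p, q, hpq⟩ := Fintype.exists_pair_of_one_lt_card (show 1 < Fintype.card Ω by omega)
    refine ⟨B p q, B p p - B p q, ?_⟩
    ext x y
    simp only [J, Matrix.add_apply, Matrix.smul_apply, Matrix.one_apply, Matrix.of_apply, smul_eq_mul, mul_one]
    rcases eq_or_ne x y with rfl | hxy
    · obtain ⟨g, rfl⟩ := MulAction.exists_smul_eq G p x
      rw [hB, if_pos rfl]; ring
    · obtain ⟨g, hg1, hg2⟩ := MulAction.is_two_pretransitive_iff.1 h2 hpq hxy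
      rw [if_neg hxy, ← hg1, ← hg2, hB]; ring
  have hAJ : A * J = (k : ℤ) • J := by
    ext x y
    simp [J, Matrix.mul_apply, hrow]
  have hJA : J * A = (k : ℤ) • J := by
    ext x y
    simp [J, Matrix.mul_apply, hcol]
  have hAtJ : J * Aᵀ = (k : ℤ) • J := by
    ext x y
    simp [J, Matrix.mul_apply, hrow]
  obtain ⟨lam, t, hgram⟩ : ∃ lam t : ℤ, A * Aᵀ = t • (1 : Matrix Ω Ω ℤ) + lam • J := by
    refine hinv _ fun g x y => ?_
    simp only [Matrix.mul_apply, Matrix.transpose_apply]
    rw [← Equiv.sum_comp (MulAction.toPerm (α g) : Equiv.Perm Ω)]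
    simp only [MulAction.toPerm_apply, hA]
  have hdiag : (k : ℤ) = t + lam := by
    have := congrFun (congrFun hgram o) o
    simp only [Matrix.mul_apply, Matrix.transpose_apply, Matrix.add_apply, Matrix.smul_apply, J,
      Matrix.of_apply, Matrix.one_apply_eq, smul_eq_mul, mul_one] at this
    rw [← this, ← hrow o]
    refine Finset.sum_congr rfl fun y _ => ?_
    simp only [A, Matrix.of_apply]
    split <;> simp
  have hJJ : J * J = (n : ℤ) • J := by
    ext x y
    simp [J, Matrix.mul_apply, hndef]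
  have hksq : (k : ℤ) ^ 2 = t + n * lam := by
    have h1 : A * Aᵀ * J = (t + n * lam) • J := by
      rw [hgram, Matrix.add_mul, Matrix.smul_mul, Matrix.smul_mul, Matrix.one_mul, hJJ, smul_smul, add_smul,
        mul_comm lam]
    have hAtJ' : Aᵀ * J = (k : ℤ) • J := by
      ext x y
      simp [J, Matrix.mul_apply, hcol]
    rw [Matrix.mul_assoc, hAtJ', Matrix.mul_smul, hAJ, smul_smul] at h1
    have := congrFun (congrFun h1 o) o
    simp only [J, Matrix.smul_apply, Matrix.of_apply, smul_eq_mul, mul_one] at this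
    rw [← this]; ring
  -- powers
  set m := orderOf α
  have hpow : ∀ (i : ℕ) (g : G) x y, (A ^ i) (g • x) ((α ^ i) g • y) = (A ^ i) x y := by
    intro i
    induction i with
    | zero =>
      intro g x y
      rcases eq_or_ne x y with rfl | hxy
      · simp
      · simp [Matrix.one_apply_ne hxy, Matrix.one_apply_ne (fun h => hxy (smul_left_cancel g h) : g • x ≠ g • y)]
    | succ i ih =>
      intro g x y
      rw [pow_succ, Matrix.mul_apply, Matrix.mul_apply,
        ← Equiv.sum_comp (MulAction.toPerm ((α ^ i) g) : Equiv.Perm Ω)]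
      refine Finset.sum_congr rfl fun z _ => ?_
      rw [MulAction.toPerm_apply, ih]
      congr 1
      rw [pow_succ', MulAut.mul_apply]
      exact hA _ _ _
  obtain ⟨a, b, hAm⟩ : ∃ a b : ℤ, A ^ m = b • (1 : Matrix Ω Ω ℤ) + a • J := by
    refine hinv _ fun g x y => ?_
    have := hpow m g x y
    rwa [pow_orderOf_eq_one, MulAut.one_apply] at this
  have hAmJ : ∀ i : ℕ, A ^ i * J = ((k : ℤ) ^ i) • J := by
    intro i
    induction i with
    | zero => simp
    | succ i ih => rw [pow_succ, Matrix.mul_assoc, hAJ, Matrix.mul_smul, ih, smul_smul, pow_succ']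
  have hgrampow : ∀ i : ℕ, ∃ c : ℤ, A ^ i * (Aᵀ) ^ i = t ^ i • (1 : Matrix Ω Ω ℤ) + c • J := by
    intro i
    induction i with
    | zero => exact ⟨0, by simp⟩
    | succ i ih =>
      obtain ⟨c, hc⟩ := ih
      refine ⟨t ^ i * lam + c * k * k, ?_⟩
      rw [pow_succ' A, pow_succ Aᵀ, Matrix.mul_assoc, ← Matrix.mul_assoc (A ^ i), hc, Matrix.add_mul,
        Matrix.smul_mul, Matrix.one_mul, Matrix.smul_mul, hAtJ, Matrix.mul_add, Matrix.mul_smul, hgram,
        Matrix.mul_smul, Matrix.mul_smul, hAJ, smul_add, smul_smul, smul_smul, smul_smul, smul_smul, add_smul,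
        ← add_assoc, ← pow_succ, mul_assoc]
  have hb : b ^ 2 = t ^ m := by
    obtain ⟨c, hc⟩ := hgrampow m
    rw [← Matrix.transpose_pow, hAm, Matrix.transpose_add, Matrix.transpose_smul, Matrix.transpose_smul,
      Matrix.transpose_one, show Jᵀ = J from rfl, Matrix.add_mul, Matrix.mul_add, Matrix.mul_add] at hc
    simp only [Matrix.smul_mul, Matrix.mul_smul, Matrix.one_mul, Matrix.mul_one, hJJ, smul_smul] at hc
    obtain ⟨p, q, hpq⟩ := Fintype.exists_pair_of_one_lt_card (show 1 < Fintype.card Ω by omega)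
    have e1 := congrFun (congrFun hc p) p
    have e2 := congrFun (congrFun hc p) q
    simp only [Matrix.add_apply, Matrix.smul_apply, Matrix.one_apply_eq, Matrix.one_apply_ne hpq, J,
      Matrix.of_apply, smul_eq_mul, mul_one, mul_zero] at e1 e2
    linarith
  have hkm : (k : ℤ) ^ m = b + a * n := by
    have h1 := hAmJ m
    rw [hAm, Matrix.add_mul, Matrix.smul_mul, Matrix.smul_mul, Matrix.one_mul, hJJ, smul_smul, ← add_smul] at h1
    have := congrFun (congrFun h1 o) o
    simp only [J, Matrix.smul_apply, Matrix.of_apply, smul_eq_mul, mul_one] at this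
    exact this.symm
  obtain ⟨j, hj⟩ := hα
  have hcop : IsCoprime (k : ℤ) (n : ℤ) := Int.isCoprime_iff_gcd_eq_one.2 (by simpa using hk)
  have ht0 : t ≠ 0 := by
    intro h0
    have h1 : IsCoprime ((k : ℤ) ^ 2) (n : ℤ) := hcop.pow_left
    rw [hksq, h0, zero_add] at h1
    have := h1.symm.of_mul_right_left
    rw [isCoprime_self, Int.isUnit_iff] at this
    omega
  obtain ⟨s0, hs0⟩ : ∃ s : ℤ, t = s ^ 2 := by
    refine square_of_mul_sq (pow_ne_zero j ht0) (b := b) ?_
    rw [hb, hj, ← pow_mul, mul_comm j 2, pow_succ, mul_comm]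
  set s : ℤ := (s0.natAbs : ℤ)
  have hts : t = s ^ 2 := by rw [hs0]; exact (Int.natAbs_sq s0).symm
  have hs1 : 1 ≤ s := by
    rcases Nat.eq_zero_or_pos s0.natAbs with h | h
    · exact absurd (by rw [hts]; simp [s, Int.natAbs_eq_zero.1 h]) ht0
    · show 1 ≤ (s0.natAbs : ℤ)
      omega
  have hbs : b = s ^ m ∨ b = -(s ^ m) := by
    rw [← sq_eq_sq_iff_eq_or_eq_neg, hb, hts, ← pow_mul, ← pow_mul, mul_comm]
  have hsn : IsCoprime (s ^ 2) (n : ℤ) := by
    have h1 : IsCoprime ((k : ℤ) ^ 2) (n : ℤ) := hcop.pow_left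
    rw [hksq, hts] at h1
    exact h1.of_add_mul_left_left
  have hmod : (n : ℤ) ∣ (k : ℤ) - s ∨ (n : ℤ) ∣ (k : ℤ) + s := by
    have hd : (n : ℤ) ∣ ((k : ℤ) ^ 2) ^ j - (s ^ 2) ^ j :=
      dvd_trans ⟨lam, by rw [hksq, hts]; ring⟩ (sub_dvd_pow_sub_pow _ _ j)
    have hcopj : IsCoprime (n : ℤ) ((s ^ 2) ^ j) := hsn.symm.pow_right
    have hk2 : (k : ℤ) ^ m = ((k : ℤ) ^ 2) ^ j * k := by rw [hj, pow_succ, pow_mul]
    have hs2 : s ^ m = (s ^ 2) ^ j * s := by rw [hj, pow_succ, pow_mul]
    rcases hbs with hb' | hb'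
    · left
      refine hcopj.dvd_of_dvd_mul_left ?_
      obtain ⟨c, hc⟩ := hd
      exact ⟨a - c * k, by linear_combination hb' + hs2 + hkm - hk2 - (k : ℤ) * hc⟩
    · right
      refine hcopj.dvd_of_dvd_mul_left ?_
      obtain ⟨c, hc⟩ := hd
      exact ⟨a - c * k, by linear_combination hb' - hs2 + hkm - hk2 - (k : ℤ) * hc⟩
  have hkn : k < n := by
    have hle : k ≤ n := by
      rw [hkdef, hndef, ← Nat.card_eq_fintype_card (α := Ω)]
      exact Nat.card_le_card_of_injective _ Subtype.val_injective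
    refine lt_of_le_of_ne hle fun h => ?_
    rw [h, Nat.coprime_self] at hk
    omega
  have hlam : 0 ≤ lam := by
    obtain ⟨p, q, hpq⟩ := Fintype.exists_pair_of_one_lt_card (show 1 < Fintype.card Ω by omega)
    have := congrFun (congrFun hgram p) q
    simp only [Matrix.mul_apply, Matrix.transpose_apply, Matrix.add_apply, Matrix.smul_apply, J,
      Matrix.of_apply, Matrix.one_apply_ne hpq, smul_eq_mul, mul_one, mul_zero, zero_add] at this
    rw [← this]
    refine Finset.sum_nonneg fun y _ => mul_nonneg ?_ ?_ <;>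
    · simp only [A, Matrix.of_apply]
      split <;> norm_num
  have hsk : s ≤ k := by nlinarith
  have hn0 : (n : ℤ) ≠ 0 := by omega
  rcases hmod with h | h
  · left
    have h0 : (k : ℤ) - s = 0 := Int.eq_zero_of_dvd_of_nonneg_of_lt (by omega) (by omega) h
    have hks : (k : ℤ) = s := by linarith
    rw [hks, hts] at hksq
    have hl : lam = 0 := by
      refine (mul_eq_zero.1 (?_ : (n : ℤ) * lam = 0)).resolve_left hn0
      linarith
    have h2' : s * s = s * 1 := by
      rw [hl, hts, hks] at hdiag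
      linarith [sq s]
    have := mul_left_cancel₀ (by omega : s ≠ 0) h2'
    omega
  · right
    have h0 : (k : ℤ) + s - n = 0 :=
      Int.eq_zero_of_dvd_of_nonneg_of_lt
        (by have := Int.le_of_dvd (by omega) h; omega) (by omega) (dvd_sub h (dvd_refl _))
    have hks : (k : ℤ) = n - s := by linarith
    rw [hks, hts] at hksq
    have hl : lam = n - 2 * s := mul_left_cancel₀ hn0 (by linarith [sq s, show ((n : ℤ) - s) ^ 2 = n * (n - 2 * s) + s ^ 2 by ring])
    have h2' : s * s = s * 1 := by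
      rw [hl, hts, hks] at hdiag
      linarith [sq s]
    have := mul_left_cancel₀ (by omega : s ≠ 0) h2'
    omega

end Cfsg.Agent.Lib.Struct4
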